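import Cfsg.Agent.Lib.Helper3.Stcs6

set_option autoImplicit false
set_option maxRecDepth 100000

namespace Cfsg.Agent.Lib.Helper3.L34

open Cfsg.Agent.Lib.Helper11 Cfsg.Agent.Lib.Helper3

set_option maxHeartbeats 0

noncomputable def ntl : List (List (ℕ × ℕ)) := [[], [(0x842, 16), (0x500028, 8), (0x8000408, 4), (0x30031302, 2), (0x10041105, 1), (0x20022000, 2), (0x8000a08, 4), (0x5000aa, 8), (0x842, 16)], [(0x61d6, 16), (0x590036, 8), (0xb040e01, 4), (0x31200, 2), (0x41445004, 1), (0x20000, 2), (0xa000c00, 4), (0x18003a, 8), (0x61c8, 16)], [(0x846, 16), (0x5000aa, 8), (0x8000a08, 4), (0x10011301, 2), (0x40014405, 1), (0x2000, 2), (0x8000408, 4), (0x500028, 8), (0x840, 16)], [(0xc022, 16), (0xc00033, 8), (0xf0109, 4), (0x320000, 2), (0x140554, 1), (0x0, 2), (0x20000, 4), (0xc00022, 8), (0xc022, 16)], [(0x842, 16), (0x500028, 8), (0x8000408, 4), (0x30031302, 2), (0x10041105, 1), (0x20022000, 2), (0x8000a08, 4), (0x5000aa, 8), (0x842, 16)], [(0x846,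 16), (0x5000aa, 8), (0x8000a08, 4), (0x10011301, 2), (0x40014405, 1), (0x2000, 2), (0x8000408, 4), (0x500028, 8), (0x840, 16)], [(0xcb7a, 16), (0x5a0020, 8), (0xa06000e, 4), (0x12030020, 2), (0x11010051, 1), (0x22000002, 2), (0x206000c, 4), (0x100030, 8), (0xcb64, 16)], [(0xcb64, 16), (0x100030, 8), (0x106000c, 4), (0x12030012, 2), (0x41040051, 1), (0x0, 2), (0x6000e, 4), (0x5a0020, 8), (0xcb7a, 16)], [(0x4352, 16), (0x4500a2, 8), (0x4080806, 4), (0x2300202, 2), (0x4110041, 1), (0x2200000, 2), (0x80006, 4), (0x4400a6, 8), (0x4352, 16)], [(0x4352, 16), (0x1b00a6, 8), (0x8000006, 4), (0x10020200, 2), (0x41040041, 1), (0x20002, 2), (0x8040806, 4), (0x1a00a2, 8), (0x4352, 16)], [(0x1091, 16), (0x100036, 8), (0x8040a, 4), (0x201020, 2), (0x140141, 1), (0x220200, 2), (0x8040a, 4), (0x38, 8), (0x1090, 16)], [(0x3091, 16), (0x20000c, 8), (0xf0004, 4), (0x200210, 2), (0x510104, 1), (0x20002, 2), (0x40004, 4), (0x300002, 8), (0x3090, 16)], [(0x210, 16),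 (0x200bc, 8), (0xc06, 4), (0x11201, 2), (0x140, 1), (0x200, 2), (0xc04, 4), (0xb4, 8), (0x210, 16)], [(0x7150, 16), (0x210086, 8), (0x804, 4), (0x10200212, 2), (0x410001, 1), (0x200000, 2), (0x40004, 4), (0x300082, 8), (0x7150, 16)], [(0x7150, 16), (0x33009e, 8), (0x40400, 4), (0x10201200, 2), (0x1400001, 1), (0x200002, 2), (0xc00, 4), (0x220090, 8), (0x7150, 16)]]
noncomputable def INV : ℕ := 547106660713112698654816
abbrev deg : ℕ := 21

theorem setup : NetSetup ntl deg 5 INV 15 where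
  hok := by decide +kernel
  hstab := by decide +kernel
  hlen := by decide +kernel
  h0 := by decide +kernel
  hINV := by decide +kernel
  hINV0 := by decide +kernel
  htriv := by decide +kernel

end Cfsg.Agent.Lib.Helper3.L34
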