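import Cfsg.Agent.Lib.Helper3.M21.Main
import Cfsg.Agent.Lib.Helper3.L34.Net
import Cfsg.Agent.Lib.Helper3.MatChk

set_option autoImplicit false
set_option maxRecDepth 100000

namespace Cfsg.Agent.Lib.Helper3.L34

open Cfsg.Agent.Lib.Helper11 Cfsg.Agent.Lib.Helper3 MulAction

set_option maxHeartbeats 0

theorem relsR : ∀ r ∈ M21.RelAll, (r.map (vL ntl deg)).prod = 1 :=
  setup.rels_of_wordId M21.RelAll (by decide +kernel)

theorem relsT : ∀ r ∈ M21.RelAll, (r.map (vL M21.ntl M21.deg)).prod = 1 :=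
  M21.setup.rels_of_wordId M21.RelAll (by decide +kernel)

theorem INV_eq : INV = M21.INV := by decide +kernel

theorem bd : Bd (fun l => (vL ntl deg l, vL M21.ntl M21.deg l)) [1, 2] 20160 := by
  apply M21.ubAll
  · rw [setup.v0, M21.setup.v0]
    rfl
  · intro l
    have h1 := setup.vinv l
    rw [INV_eq] at h1
    rw [h1, M21.setup.vinv l]
    rfl
  · intro r hr
    rw [prod_map_pair, relsR r hr, relsT r hr]
    rfl

theorem ne1 : vL ntl deg 1 ≠ 1 := by
  intro h
  have h1 := setup.img_of_chk 1 0 7 (by norm_num [deg]) (by norm_num [deg]) (by decide +kernel)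
  rw [h] at h1
  have := congrArg Fin.val h1
  simp at this

theorem iso : Nonempty (lgrp (vL ntl deg) [1, 2] ≃* lgrp (vL M21.ntl M21.deg) [1, 2]) :=
  iso_of_bd _ _ [1, 2] 20160 bd M21.card_eq M21.simple ⟨1, by simp, ne1⟩

theorem simple : IsSimpleGroup (lgrp (vL ntl deg) [1, 2]) := by
  obtain ⟨e⟩ := iso
  exact e.isSimpleGroup_congr.2 M21.simple

theorem card_eq : Nat.card (lgrp (vL ntl deg) [1, 2]) = 20160 := by
  obtain ⟨e⟩ := iso
  rw [Nat.card_congr e.toEquiv, M21.card_eq]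

end Cfsg.Agent.Lib.Helper3.L34
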