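import Cfsg.Agent.Lib.Helper3.L34.Bd
import Cfsg.Agent.Lib.Helper3.MatL2
import Cfsg.Agent.Lib.Helper3.F4

set_option autoImplicit false
set_option maxRecDepth 100000

namespace Cfsg.Agent.Lib.Helper3.L34

open Cfsg.Agent.Lib.Helper11 Cfsg.Agent.Lib.Helper3 Matrix

set_option maxHeartbeats 0

def AL : List (List (F4)) := [[F4.o, F4.o, F4.w], [F4.w, F4.w, F4.z], [F4.o, F4.w2, F4.w2]]
def BL : List (List (F4)) := [[F4.w2, F4.w, F4.w], [F4.w, F4.w2, F4.w], [F4.w2, F4.w2, F4.o]]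
def frInvL : List (List (F4)) := [[F4.o, F4.o, F4.w], [F4.z, F4.o, F4.w], [F4.o, F4.w, F4.o]]
def frAL : List (F4) := [F4.w, F4.w, F4.o]
def frBL : List ℕ := [12, 15, 4]
def frI : Fin 21 := 0
def PT : ℕ := 0x3db5d379a59275955171851074914110
def CS1 : ℕ := 0x37a5deab6b6
def CS2 : ℕ := 0x369efb65f5a
def IMG1 : ℕ := 0xb985f2131a5320034d1c454607
def IMG2 : ℕ := 0x10a050e2cc8052d2d11e5130dec
def pt (i : ℕ) : List (F4) := ptOf F4.dec PT 2 3 i
def witJ : Fin 3 := 0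
def witK : Fin 3 := 0

theorem chk1 : genChkW [AL] pt (fun i => F4.dec (tb CS1 2 i)) (tb IMG1 5) ntl 1 21 := by
  decide +kernel
theorem chk2 : genChkW [BL] pt (fun i => F4.dec (tb CS2 2 i)) (tb IMG2 5) ntl 2 21 := by
  decide +kernel

end Cfsg.Agent.Lib.Helper3.L34
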